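import Cfsg.Agent.StronglyEmbedded.Basic
import Cfsg.Agent.S0065
import Mathlib.GroupTheory.GroupAction.Quotient
import Mathlib.GroupTheory.Nilpotent

/-!
A subgroup `B` of odd index with trivial core and a nilpotent normal subgroup `U`, of odd relative
index, transitive on the cosets outside `B`: basic facts on the conjugates of the central involutions
of `U` ("members").
-/

set_option autoImplicit false
set_option linter.style.haveILetI false

namespace CfsgLib.RankOneBN.Nil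

open Cfsg CfsgLib.StronglyEmbedded

universe v

variable {G : Type v} [Group G]

/-- The hypotheses on `B` and `U`. -/
structure NilSplit (B U : Subgroup G) : Prop where
  ne_top : B ≠ ⊤
  core : B.normalCore = ⊥
  odd_index : Odd B.index
  le : U ≤ B
  conj_mem : ∀ h ∈ B, ∀ x ∈ U, h * x * h⁻¹ ∈ U
  nilp : Group.IsNilpotent U
  odd_rel : Odd (U.relIndex B)
  trans : ∀ g₁ g₂ : G, g₁ ∉ B → g₂ ∉ B → ∃ u ∈ U, g₂⁻¹ * (u * g₁) ∈ B

/-- A central involution of `U`. -/
def IsE (U : Subgroup G) (x : G) : Prop := orderOf x = 2 ∧ x ∈ U ∧ ∀ u ∈ U, Commute u x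

/-- A conjugate of a central involution of `U`. -/
def IsMem (U : Subgroup G) (z : G) : Prop := ∃ g : G, IsE U (g⁻¹ * z * g)

theorem smul_mk_eq_iff {B : Subgroup G} {g x : G} :
    x • (g : G ⧸ B) = (g : G ⧸ B) ↔ g⁻¹ * x * g ∈ B := by
  rw [MulAction.Quotient.smul_coe, smul_eq_mul, QuotientGroup.eq, ← inv_mem_iff]
  simp [mul_assoc]

theorem smul_base_iff {B : Subgroup G} {x : G} :
    x • ((1 : G) : G ⧸ B) = ((1 : G) : G ⧸ B) ↔ x ∈ B := by
  rw [smul_mk_eq_iff]; simp

theorem mk_eq_base_iff {B : Subgroup G} {g : G} :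
    (g : G ⧸ B) = ((1 : G) : G ⧸ B) ↔ g ∈ B := by
  rw [QuotientGroup.eq, mul_one, inv_mem_iff]

theorem orderOf_conj_inv (g t : G) : orderOf (g⁻¹ * t * g) = orderOf t := by
  have h := StronglyEmbedded.orderOf_conj g⁻¹ t
  rwa [inv_inv] at h

theorem IsE.isMem {U : Subgroup G} {x : G} (h : IsE U x) : IsMem U x := ⟨1, by simpa using h⟩

theorem IsMem.orderOf_eq {U : Subgroup G} {z : G} (h : IsMem U z) : orderOf z = 2 := by
  obtain ⟨g, hg⟩ := h
  rw [← orderOf_conj_inv g z, hg.1]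

theorem IsMem.conj {U : Subgroup G} {z : G} (h : IsMem U z) (x : G) :
    IsMem U (x * z * x⁻¹) := by
  obtain ⟨g, hg⟩ := h
  exact ⟨x * g, by rwa [show (x * g)⁻¹ * (x * z * x⁻¹) * (x * g) = g⁻¹ * z * g by group]⟩

variable {B U : Subgroup G} (h : NilSplit B U)

include h

theorem IsE.conj {x e : G} (hx : x ∈ B) (he : IsE U e) : IsE U (x * e * x⁻¹) := by
  refine ⟨by rw [StronglyEmbedded.orderOf_conj, he.1], h.conj_mem x hx e he.2.1, fun u hu => ?_⟩
  have hu' : x⁻¹ * u * x ∈ U := by simpa using h.conj_mem x⁻¹ (inv_mem hx) u hu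
  have h' := (he.2.2 _ hu').map (MulAut.conj x).toMonoidHom
  simpa [mul_assoc] using h'

theorem inv_conj_mem {x y : G} (hx : x ∈ B) (hy : y ∈ U) : x⁻¹ * y * x ∈ U := by
  simpa using h.conj_mem x⁻¹ (inv_mem hx) y hy

/-- A nontrivial central element of `U` fixes only the base coset. -/
theorem mem_of_conj {z : G} (hzU : z ∈ U) (hzc : ∀ u ∈ U, Commute u z) (hz1 : z ≠ 1) {g : G}
    (hg : g⁻¹ * z * g ∈ B) : g ∈ B := by
  by_contra hgB
  have hall : ∀ x : G, x⁻¹ * z * x ∈ B := fun x => by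
    by_cases hx : x ∈ B
    · exact h.le (inv_conj_mem h hx hzU)
    · obtain ⟨v, hv, hb⟩ := h.trans g x hgB hx
      have key : x⁻¹ * z * x = x⁻¹ * (v * g) * (g⁻¹ * (v⁻¹ * z * v) * g) * (x⁻¹ * (v * g))⁻¹ := by
        group
      have hvz : v⁻¹ * z * v = z := by rw [mul_assoc, ← (hzc v hv).eq, inv_mul_cancel_left]
      rw [key, hvz]
      exact mul_mem (mul_mem hb hg) (inv_mem hb)
  refine hz1 (Subgroup.mem_bot.mp (h.core ▸ ?_))
  show ∀ b : G, b * z * b⁻¹ ∈ B
  intro b
  simpa using hall b⁻¹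

theorem IsE.mem_of_conj_mem {e g : G} (he : IsE U e) (hg : g⁻¹ * e * g ∈ B) : g ∈ B :=
  mem_of_conj h he.2.1 he.2.2 (ne_one_of_orderOf_two he.1) hg

/-- Members inside `B` are central involutions of `U`. -/
theorem isE_of_isMem_of_mem {z : G} (hz : IsMem U z) (hzB : z ∈ B) : IsE U z := by
  obtain ⟨g, hg⟩ := hz
  have hgB : g ∈ B := by
    have := IsE.mem_of_conj_mem h hg (g := g⁻¹) (by simpa [mul_assoc] using hzB)
    exact inv_mem_iff.mp this
  have := IsE.conj h hgB hg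
  rwa [show g * (g⁻¹ * z * g) * g⁻¹ = z by group] at this

theorem isE_conj_of_fix {z g : G} (hz : IsMem U z) (hg : z • (g : G ⧸ B) = g) :
    IsE U (g⁻¹ * z * g) := by
  refine isE_of_isMem_of_mem h ?_ (smul_mk_eq_iff.mp hg)
  simpa using hz.conj g⁻¹

theorem exists_centre {z : G} (hz : IsMem U z) : ∃ c : G ⧸ B, z • c = c := by
  obtain ⟨g, hg⟩ := hz
  exact ⟨(g : G ⧸ B), smul_mk_eq_iff.mpr (h.le hg.2.1)⟩

theorem centre_unique {z : G} (hz : IsMem U z) {c d : G ⧸ B} (hc : z • c = c) (hd : z • d = d) :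
    c = d := by
  induction c using QuotientGroup.induction_on with
  | H x =>
  induction d using QuotientGroup.induction_on with
  | H y =>
  have he := isE_conj_of_fix h hz hc
  refine QuotientGroup.eq.mpr (IsE.mem_of_conj_mem h he ?_)
  rw [show (x⁻¹ * y)⁻¹ * (x⁻¹ * z * x) * (x⁻¹ * y) = y⁻¹ * z * y by group]
  exact smul_mk_eq_iff.mp hd

theorem fix_centre_of_commute {z x : G} (hz : IsMem U z) (hxz : Commute x z) {c : G ⧸ B}
    (hc : z • c = c) : x • c = c :=
  centre_unique h hz (by rw [smul_smul, ← hxz.eq, ← smul_smul, hc]) hc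

theorem commute_of_mem_U {z x g : G} (hz : IsMem U z) (hzc : z • (g : G ⧸ B) = g)
    (hx : g⁻¹ * x * g ∈ U) : Commute x z := by
  have h' := ((isE_conj_of_fix h hz hzc).2.2 _ hx).map (MulAut.conj g).toMonoidHom
  simpa [mul_assoc] using h'

variable [Finite G]

/-- Every 2-element of `B` lies in `U`. -/
theorem two_mem {x : G} (hx : x ∈ B) {k : ℕ} (hk : x ^ 2 ^ k = 1) : x ∈ U := by
  haveI : (U.subgroupOf B).Normal := ⟨fun y hy b => by
    simpa [Subgroup.mem_subgroupOf] using h.conj_mem b b.2 y hy⟩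
  have hodd : Odd (Nat.card (↥B ⧸ U.subgroupOf B)) := h.odd_rel
  set y : ↥B ⧸ U.subgroupOf B := QuotientGroup.mk ⟨x, hx⟩ with hy
  have h1 : y ^ 2 ^ k = 1 := by
    rw [hy, ← QuotientGroup.mk_pow]
    exact (QuotientGroup.eq_one_iff _).mpr (by simp [Subgroup.mem_subgroupOf, hk])
  have h2 : orderOf y = 1 := by
    refine Nat.eq_one_of_dvd_coprimes ?_ (orderOf_dvd_of_pow_eq_one h1) (orderOf_dvd_natCard y)
    exact (Nat.coprime_two_left.mpr hodd).pow_left k
  have h3 : (⟨x, hx⟩ : ↥B) ∈ U.subgroupOf B :=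
    (QuotientGroup.eq_one_iff _).mp (orderOf_eq_one_iff.mp h2)
  exact h3

theorem involution_mem {x : G} (hx : x ∈ B) (h2 : orderOf x = 2) : x ∈ U :=
  two_mem h hx (k := 1) (by rw [pow_one, ← h2, pow_orderOf_eq_one])

/-- A 2-element commutes with every member centred at a coset it fixes. -/
theorem commute_of_two {z x : G} (hz : IsMem U z) {c : G ⧸ B} (hzc : z • c = c) (hxc : x • c = c)
    {k : ℕ} (hk : x ^ 2 ^ k = 1) : Commute x z := by
  induction c using QuotientGroup.induction_on with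
  | H g =>
  refine commute_of_mem_U h hz hzc (two_mem h (smul_mk_eq_iff.mp hxc) (k := k) ?_)
  have := conj_pow (a := g⁻¹) (b := x) (i := 2 ^ k)
  rw [inv_inv] at this
  rw [this, hk]; simp

/-- (F1) Members with different centres have a product of odd order. -/
theorem odd_mul {z w : G} (hz : IsMem U z) (hw : IsMem U w) {c d : G ⧸ B} (hc : z • c = c)
    (hd : w • d = d) (hne : c ≠ d) : Odd (orderOf (z * w)) := by
  by_contra hodd
  obtain ⟨m, hm⟩ := Nat.not_odd_iff_even.mp hodd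
  have hz2 := hz.orderOf_eq
  have hw2 := hw.orderOf_eq
  have hpos := orderOf_pos (z * w)
  set r := z * w with hrdef
  set v := r ^ m with hvdef
  have hv : orderOf v = 2 := by
    rw [hvdef, orderOf_pow' _ (by omega), hm, Nat.gcd_eq_right (dvd_add dvd_rfl dvd_rfl),
      ← two_mul, Nat.mul_div_cancel _ (by omega)]
  have hzr : z * r * z⁻¹ = r⁻¹ := by
    rw [hrdef, mul_inv_rev, inv_eq_self hz2, inv_eq_self hw2, ← mul_assoc z z w,
      mul_self_eq_one hz2, one_mul]
  have hwr : w * r * w⁻¹ = r⁻¹ := by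
    rw [hrdef, mul_inv_rev, inv_eq_self hz2, inv_eq_self hw2, mul_assoc, mul_assoc z w w,
      mul_self_eq_one hw2, mul_one]
  have hzv : Commute z v := commute_iff_conj_eq.mpr (by
    rw [hvdef, ← conj_pow, hzr, inv_pow]; exact inv_eq_self hv)
  have hwv : Commute w v := commute_iff_conj_eq.mpr (by
    rw [hvdef, ← conj_pow, hwr, inv_pow]; exact inv_eq_self hv)
  have hmem : IsMem U (z * v) := by
    obtain ⟨i, rfl | rfl⟩ := Nat.even_or_odd' m
    · have e1 : z * r ^ i * z⁻¹ = (r ^ i)⁻¹ := by rw [← conj_pow, hzr, inv_pow]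
      have e2 : (r ^ i)⁻¹ * z * ((r ^ i)⁻¹)⁻¹ = z * v := by
        rw [inv_inv, ← e1, show z * r ^ i * z⁻¹ * z * r ^ i = z * (r ^ i * r ^ i) by group, hvdef,
          two_mul, pow_add]
      exact e2 ▸ hz.conj _
    · have e1 : w * r ^ i * w⁻¹ = (r ^ i)⁻¹ := by rw [← conj_pow, hwr, inv_pow]
      have e2 : (r ^ i)⁻¹ * w * ((r ^ i)⁻¹)⁻¹ = z * v := by
        rw [inv_inv, ← e1, show w * r ^ i * w⁻¹ * w * r ^ i = w * (r ^ i * r ^ i) by group, hvdef,
          pow_succ', two_mul, pow_add, hrdef, ← mul_assoc z (z * w), ← mul_assoc z z w,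
          mul_self_eq_one hz2, one_mul]
      exact e2 ▸ hw.conj _
  have hcomm : Commute (z * v) z := ((Commute.refl z).mul_right hzv).symm
  have hzvc : (z * v) • c = c := fix_centre_of_commute h hz hcomm hc
  induction c using QuotientGroup.induction_on with
  | H g =>
  have e := isE_conj_of_fix h hz hc
  have e' := isE_conj_of_fix h hmem hzvc
  have hv' : g⁻¹ * v * g = (g⁻¹ * z * g) * (g⁻¹ * (z * v) * g) := by
    rw [show (g⁻¹ * z * g) * (g⁻¹ * (z * v) * g) = g⁻¹ * ((z * z) * v) * g by group,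
      mul_self_eq_one hz2, one_mul]
  have hvm : IsMem U v := ⟨g, by rw [orderOf_conj_inv, hv], hv' ▸ mul_mem e.2.1 e'.2.1,
    fun u hu => hv' ▸ (e.2.2 u hu).mul_right (e'.2.2 u hu)⟩
  refine hne (centre_unique h hvm ?_ (fix_centre_of_commute h hw hwv.symm hd))
  exact smul_mk_eq_iff.mpr (h.le (hv' ▸ mul_mem e.2.1 e'.2.1))

theorem exists_conj_member {z w : G} (hz : IsMem U z) (hw : IsMem U w) {c d : G ⧸ B}
    (hc : z • c = c) (hd : w • d = d) (hne : c ≠ d) :
    ∃ x ∈ Subgroup.zpowers (z * w), x * z * x⁻¹ = w :=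
  exists_zpowers_conj_of_odd hz.orderOf_eq hw.orderOf_eq (odd_mul h hz hw hc hd hne)

omit [Finite G] in
theorem smul_centre {z w x : G} (hz : IsMem U z) (hw : IsMem U w) {c d : G ⧸ B} (hc : z • c = c)
    (hd : w • d = d) (he : x * z * x⁻¹ = w) : x • c = d :=
  centre_unique h hw (by rw [← he, mul_smul, mul_smul, inv_smul_smul, hc]) hd

omit [Finite G] in
theorem exists_not_mem : ∃ g : G, g ∉ B :=
  not_forall.mp fun hh => h.ne_top ((Subgroup.eq_top_iff' B).mpr hh)

omit [Finite G] in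
theorem isPretransitive_off {c d : G ⧸ B} (hc : c ≠ ((1 : G) : G ⧸ B))
    (hd : d ≠ ((1 : G) : G ⧸ B)) : ∃ u ∈ U, u • c = d := by
  induction c using QuotientGroup.induction_on with
  | H x =>
  induction d using QuotientGroup.induction_on with
  | H y =>
  obtain ⟨u, hu, hb⟩ := h.trans x y (fun e => hc (mk_eq_base_iff.mpr e))
    (fun e => hd (mk_eq_base_iff.mpr e))
  refine ⟨u, hu, ?_⟩
  rw [MulAction.Quotient.smul_coe, smul_eq_mul, QuotientGroup.eq]
  simpa [mul_assoc] using inv_mem hb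

theorem index_sub_one {c : G ⧸ B} (hc : c ≠ ((1 : G) : G ⧸ B)) :
    Nat.card U = (B.index - 1) * Nat.card ↥(U ⊓ MulAction.stabilizer G c) := by
  classical
  have horb : MulAction.orbit U c = {((1 : G) : G ⧸ B)}ᶜ := by
    ext d
    constructor
    · rintro ⟨⟨u, hu⟩, rfl⟩ hd
      exact hc (MulAction.injective u (hd.trans (smul_base_iff.mpr (h.le hu)).symm))
    · intro hd
      obtain ⟨u, hu, e⟩ := isPretransitive_off h hc hd
      exact ⟨⟨u, hu⟩, e⟩
  have h1 : Nat.card (MulAction.orbit U c) = B.index - 1 := by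
    have hi : B.index = Nat.card (G ⧸ B) := rfl
    have := Set.ncard_compl ({((1 : G) : G ⧸ B)} : Set (G ⧸ B))
    rw [Set.ncard_singleton] at this
    rw [horb, Nat.card_coe_set_eq, this, hi]
  have h2 : Nat.card (MulAction.stabilizer U c) = Nat.card ↥(U ⊓ MulAction.stabilizer G c) :=
    Nat.card_congr
      { toFun := fun x => ⟨(x : U), (x : U).2, x.2⟩
        invFun := fun x => ⟨⟨x.1, x.2.1⟩, x.2.2⟩
        left_inv := fun _ => rfl
        right_inv := fun _ => rfl }
  rw [← h1, ← h2, ← Nat.card_prod]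
  exact Nat.card_congr (MulAction.orbitProdStabilizerEquivGroup U c).symm

theorem two_le_index_sub_one : 2 ≤ B.index - 1 := by
  obtain ⟨j, hj⟩ := h.odd_index
  have h1 : B.index ≠ 1 := fun e => h.ne_top (Subgroup.index_eq_one.mp e)
  omega

theorem even_card : 2 ∣ Nat.card U := by
  obtain ⟨g, hg⟩ := exists_not_mem h
  rw [index_sub_one h (c := (g : G ⧸ B)) (fun e => hg (mk_eq_base_iff.mp e))]
  obtain ⟨j, hj⟩ := h.odd_index
  exact dvd_mul_of_dvd_left (by rw [hj]; exact ⟨j, by omega⟩) _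

theorem exists_isE : ∃ e, IsE U e := by
  haveI := h.nilp
  haveI : Fact (Nat.Prime 2) := ⟨Nat.prime_two⟩
  obtain ⟨R⟩ := (Sylow.nonempty : Nonempty (Sylow 2 U))
  haveI : (R : Subgroup U).Normal :=
    (Group.isNilpotent_of_finite_tfae (G := U)).out 0 3 rfl rfl |>.mp h.nilp 2 inferInstance R
  have hne := Cfsg.Agent.S0065.result (R : Subgroup U) (Sylow.ne_bot_of_dvd_card R (even_card h))
  have hp : IsPGroup 2 ↥((R : Subgroup U) ⊓ Subgroup.center U) := R.2.to_le inf_le_left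
  obtain ⟨k, hk⟩ := IsPGroup.iff_card.mp hp
  have hdvd : 2 ∣ Nat.card ↥((R : Subgroup U) ⊓ Subgroup.center U) := by
    rcases k with _ | k
    · exact absurd (Subgroup.card_eq_one.mp hk) hne
    · exact hk ▸ dvd_pow_self 2 k.succ_ne_zero
  obtain ⟨z, hz⟩ := exists_prime_orderOf_dvd_card' 2 hdvd
  refine ⟨((z : U) : G), ?_, (z : U).2, fun u hu =>
    congrArg Subtype.val (Subgroup.mem_center_iff.mp z.2.2 ⟨u, hu⟩)⟩
  rw [Subgroup.orderOf_coe, Subgroup.orderOf_coe, hz]

theorem exists_member_at (c : G ⧸ B) : ∃ z, IsMem U z ∧ z • c = c := by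
  obtain ⟨e, he⟩ := exists_isE h
  induction c using QuotientGroup.induction_on with
  | H g =>
  refine ⟨g * e * g⁻¹, he.isMem.conj g, smul_mk_eq_iff.mpr ?_⟩
  rw [show g⁻¹ * (g * e * g⁻¹) * g = e by group]
  exact h.le he.2.1

/-- All members are conjugate. -/
theorem exists_conj_IsE {e e' : G} (he : IsE U e) (he' : IsE U e') :
    ∃ x ∈ B, x * e * x⁻¹ = e' := by
  obtain ⟨g, hg⟩ := exists_not_mem h
  obtain ⟨w, hw, hwc⟩ := exists_member_at h (g : G ⧸ B)
  have hne : ((1 : G) : G ⧸ B) ≠ (g : G ⧸ B) := fun e => hg (mk_eq_base_iff.mp e.symm)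
  have ha : e • ((1 : G) : G ⧸ B) = ((1 : G) : G ⧸ B) := smul_base_iff.mpr (h.le he.2.1)
  have ha' : e' • ((1 : G) : G ⧸ B) = ((1 : G) : G ⧸ B) := smul_base_iff.mpr (h.le he'.2.1)
  obtain ⟨x, -, hx⟩ := exists_conj_member h he.isMem hw ha hwc hne
  obtain ⟨y, -, hy⟩ := exists_conj_member h he'.isMem hw ha' hwc hne
  have e1 : y⁻¹ * x * e * (y⁻¹ * x)⁻¹ = e' := by
    rw [show y⁻¹ * x * e * (y⁻¹ * x)⁻¹ = y⁻¹ * (x * e * x⁻¹) * y by group, hx, ← hy]; group
  exact ⟨y⁻¹ * x, smul_base_iff.mp (smul_centre h he.isMem he'.isMem ha ha' e1), e1⟩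

omit h [Finite G] in
/-- A subgroup containing all elements of prime power order of `H` contains `H`. -/
theorem le_of_primePow_mem [Finite G] {H K : Subgroup G}
    (hK : ∀ x ∈ H, ∀ p k : ℕ, p.Prime → x ^ p ^ k = 1 → x ∈ K) : H ≤ K := by
  rw [← Subgroup.relIndex_eq_one]
  by_contra hne
  obtain ⟨p, hp, hdvd⟩ := Nat.exists_prime_and_dvd hne
  haveI := Fact.mk hp
  obtain ⟨P⟩ := (Sylow.nonempty : Nonempty (Sylow p H))
  have hle : (P : Subgroup H) ≤ K.subgroupOf H := fun x hx => by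
    obtain ⟨k, hk⟩ := P.2 ⟨x, hx⟩
    refine hK x x.2 p k hp ?_
    have e1 := congrArg (fun y : ↥(P : Subgroup H) => ((y : H) : G)) hk
    simpa using e1
  exact P.not_dvd_index (hdvd.trans (Subgroup.index_dvd_of_le hle))

omit h in
/-- In a nilpotent group a subgroup of index prime to `p` contains the `p`-elements. -/
theorem mem_of_not_dvd_relIndex {U H : Subgroup G} (hU : Group.IsNilpotent U) {p : ℕ}
    (hp : p.Prime) (hd : ¬ p ∣ H.relIndex U) {x : G} (hx : x ∈ U) {k : ℕ} (hk : x ^ p ^ k = 1) :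
    x ∈ H := by
  haveI := hU
  haveI := Fact.mk hp
  haveI hnf : ∀ P : Sylow p U, (P : Subgroup U).Normal := fun P =>
    (Group.isNilpotent_of_finite_tfae (G := U)).out 0 3 rfl rfl |>.mp hU p inferInstance P
  obtain ⟨Q⟩ := (Sylow.nonempty : Nonempty (Sylow p ↥(H.subgroupOf U)))
  obtain ⟨P, hP⟩ := (Q.2.map (H.subgroupOf U).subtype).exists_le_sylow
  have hcard : Nat.card ↥((Q : Subgroup ↥(H.subgroupOf U)).map (H.subgroupOf U).subtype) =
      Nat.card P := by
    rw [Subgroup.card_map_of_injective Subtype.val_injective, Q.card_eq_multiplicity,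
      P.card_eq_multiplicity, ← Subgroup.card_mul_index (H.subgroupOf U),
      Nat.factorization_mul Nat.card_pos.ne' Subgroup.index_ne_zero_of_finite,
      Finsupp.add_apply, Nat.factorization_eq_zero_of_not_dvd (show ¬ p ∣ (H.subgroupOf U).index from hd), add_zero]
  have heq := Subgroup.eq_of_le_of_card_ge hP hcard.ge
  have hxp : IsPGroup p ↥(Subgroup.zpowers (⟨x, hx⟩ : U)) := by
    have hd : orderOf (⟨x, hx⟩ : U) ∣ p ^ k := orderOf_dvd_of_pow_eq_one (Subtype.ext (by simpa using hk))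
    obtain ⟨j, -, hj⟩ := (Nat.dvd_prime_pow hp).mp hd
    exact IsPGroup.of_card (n := j) (by rw [Nat.card_zpowers, hj])
  obtain ⟨P', hP'⟩ := hxp.exists_le_sylow
  haveI := hnf P
  haveI := Sylow.unique_of_normal P (hnf P)
  have : P' = P := Subsingleton.elim _ _
  have hxP : (⟨x, hx⟩ : U) ∈ (P : Subgroup U) := this ▸ hP' (Subgroup.mem_zpowers _)
  rw [← heq] at hxP
  obtain ⟨y, -, hy⟩ := hxP
  exact (hy ▸ y.2 : (⟨x, hx⟩ : U) ∈ H.subgroupOf U)

omit h [Finite G] in
/-- In a nilpotent group elements of coprime orders commute. -/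
theorem commute_of_coprime [Finite G] {U : Subgroup G} (hU : Group.IsNilpotent U) {x y : G}
    (hx : x ∈ U) (hy : y ∈ U) (hc : (orderOf x).Coprime (orderOf y)) : Commute x y := by
  haveI := hU
  obtain ⟨e⟩ := (Group.isNilpotent_of_finite_tfae (G := U)).out 0 4 rfl rfl |>.mp hU
  have : Commute (⟨x, hx⟩ : U) ⟨y, hy⟩ := by
    refine e.symm.injective (Eq.trans (map_mul _ _ _) (Eq.trans ?_ (map_mul _ _ _).symm))
    funext p P
    have hP := P.2
    set a := e.symm (⟨x, hx⟩ : U) p P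
    set b := e.symm (⟨y, hy⟩ : U) p P
    show a * b = b * a
    have ha : orderOf a ∣ orderOf x := by
      rw [← Subgroup.orderOf_mk x hx]
      exact orderOf_map_dvd (((Pi.evalMonoidHom _ P).comp (Pi.evalMonoidHom _ p)).comp
        e.symm.toMonoidHom) _
    have hb : orderOf b ∣ orderOf y := by
      rw [← Subgroup.orderOf_mk y hy]
      exact orderOf_map_dvd (((Pi.evalMonoidHom _ P).comp (Pi.evalMonoidHom _ p)).comp
        e.symm.toMonoidHom) _
    haveI : Fact (p : ℕ).Prime := ⟨Nat.prime_of_mem_primeFactors p.2⟩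
    obtain ⟨i, hi⟩ := IsPGroup.iff_orderOf.mp hP a
    obtain ⟨j, hj⟩ := IsPGroup.iff_orderOf.mp hP b
    rcases i with _ | i
    · rw [orderOf_eq_one_iff.mp (hi.trans (pow_zero _)), one_mul, mul_one]
    rcases j with _ | j
    · rw [orderOf_eq_one_iff.mp (hj.trans (pow_zero _)), one_mul, mul_one]
    exfalso
    refine (Fact.out : (p : ℕ).Prime).not_dvd_one (hc.gcd_eq_one ▸ Nat.dvd_gcd ?_ ?_)
    · exact (dvd_pow_self _ i.succ_ne_zero).trans (hi ▸ ha)
    · exact (dvd_pow_self _ j.succ_ne_zero).trans (hj ▸ hb)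
  exact this.map U.subtype

omit h in
/-- An element with a power of 2-power exponent in a subgroup of odd index of a nilpotent group. -/
theorem mem_of_pow_mem_odd_index [Finite G] {U : Subgroup G} (hU : Group.IsNilpotent U)
    {M : Subgroup U} {x : U} {k : ℕ} (hk : x ^ 2 ^ k ∈ M) (hM : Odd M.index) : x ∈ M := by
  haveI := hU
  obtain ⟨a, m, hm, hn⟩ := Nat.exists_eq_two_pow_mul_odd (orderOf_pos x).ne'
  -- the 2-part of `x`
  have h2 : x ^ m ∈ M := by
    haveI : Fact (Nat.Prime 2) := ⟨Nat.prime_two⟩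
    have hd : ¬ 2 ∣ (M.map U.subtype).relIndex U := by
      rw [Subgroup.relIndex, Subgroup.subgroupOf,
        Subgroup.comap_map_eq_self_of_injective Subtype.val_injective]
      exact fun he => Nat.not_even_iff_odd.mpr hM (even_iff_two_dvd.mpr he)
    have := mem_of_not_dvd_relIndex hU Nat.prime_two hd (x := ((x ^ m : U) : G)) (x ^ m).2 (k := a)
      (by
        have e1 : (x ^ m) ^ 2 ^ a = 1 := by
          rw [← pow_mul, mul_comm, ← hn, pow_orderOf_eq_one]
        simpa using congrArg Subtype.val e1)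
    obtain ⟨y, hy, e⟩ := this
    exact Subtype.val_injective e ▸ hy
  -- Bezout
  have hcop : Nat.Coprime m (2 ^ k) := (Nat.coprime_two_right.mpr hm).pow_right k
  have := mul_mem (zpow_mem h2 (Nat.gcdA m (2 ^ k))) (zpow_mem hk (Nat.gcdB m (2 ^ k)))
  rwa [← zpow_natCast, ← zpow_natCast, ← zpow_mul, ← zpow_mul, ← zpow_add, ← Nat.gcd_eq_gcd_ab,
    hcop, Nat.cast_one, zpow_one] at this

omit h in
theorem isPGroup_two_of_odd_eq_one [Finite G] {U : Subgroup G}
    (hodd : ∀ x ∈ U, Odd (orderOf x) → x = 1) : IsPGroup 2 U := by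
  intro x
  obtain ⟨a, m, hm, hn⟩ := Nat.exists_eq_two_pow_mul_odd (orderOf_pos x).ne'
  refine ⟨a, Subtype.ext (hodd _ (x ^ 2 ^ a).2 ?_)⟩
  rw [Subgroup.orderOf_coe, orderOf_pow' _ (pow_ne_zero _ two_ne_zero), hn,
    Nat.gcd_eq_right (dvd_mul_right _ _), Nat.mul_div_cancel_left _ (pow_pos two_pos _)]
  exact hm

end CfsgLib.RankOneBN.Nil
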